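import Cfsg.Agent.H918.UWrap
import Cfsg.Agent.H930.UnitaryTensor

/-!
# Maximal subgroups of `SU_12(q)`: bookkeeping

From "a maximal subgroup of `SU_12(q)` is in a member of `InUnitaryClass` or in the residual class" to the list of
statement S5865.
-/

set_option autoImplicit false

namespace Cfsg.Agent.H930

open Cfsg Cfsg.Agent.H918
open scoped Matrix MatrixGroups

theorem twelve_ne_pow {k t : ℕ} (ht : 2 ≤ t) : k ^ t ≠ 12 := by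
  intro h
  have hk : k ≤ 3 := by
    by_contra hk
    have h1 : 4 ^ t ≤ k ^ t := Nat.pow_le_pow_left (by omega) t
    have h2 : 4 ^ 2 ≤ 4 ^ t := Nat.pow_le_pow_right (by norm_num) ht
    omega
  have ht' : t ≤ 3 ∨ 4 ≤ t := by omega
  interval_cases k
  · rw [zero_pow (by omega)] at h
    omega
  · rw [one_pow] at h
    omega
  · rcases ht' with h1 | h1
    · interval_cases t <;> omega
    · have : 2 ^ 4 ≤ 2 ^ t := Nat.pow_le_pow_right (by norm_num) h1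
      omega
  · rcases ht' with h1 | h1
    · interval_cases t <;> omega
    · have : 3 ^ 4 ≤ 3 ^ t := Nat.pow_le_pow_right (by norm_num) h1
      omega

theorem twelve_ne_prime_pow {r k : ℕ} (hr : r.Prime) : 12 ≠ r ^ k := by
  intro h
  have hk : 2 ≤ k := by
    by_contra hk
    have : k = 0 ∨ k = 1 := by omega
    rcases this with rfl | rfl
    · simp at h
    · rw [pow_one] at h
      subst h
      norm_num at hr
  exact twelve_ne_pow hk h.symm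

theorem su_twelve_cases {F : Type*} [Field F] [Fintype F] (q : ℕ) (hF : Fintype.card F = q ^ 2)
    (H : Subgroup (Matrix.GeneralLinearGroup (Fin 12) F))
    (hH : Cfsg.Geo.IsMaximalIn (Cfsg.GU 12 F q ⊓ Cfsg.Geo.specialLinear (Fin 12) F) H)
    (h : (∃ M : Subgroup (Matrix.GeneralLinearGroup (Fin 12) F), Geo.InUnitaryClass 12 F q M ∧ H ≤ M) ∨
      Geo.InUnitaryResidualClass H) :
    (∃ W : Submodule F (Fin 12 → F), W ≠ ⊥ ∧ Cfsg.Geo.IsTotallySingularFor (Cfsg.hermForm 12 F q) W ∧ H = Cfsg.Geo.subspaceStabilizer W ⊓ (Cfsg.GU 12 F q ⊓ Cfsg.Geo.specialLinear (Fin 12) F)) ∨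
    (∃ W : Submodule F (Fin 12 → F), W ≠ ⊥ ∧ Cfsg.Geo.IsNondegenerateOn (Cfsg.hermForm 12 F q) W ∧ 2 * Module.finrank F W < 12 ∧ H = Cfsg.Geo.subspaceStabilizer W ⊓ (Cfsg.GU 12 F q ⊓ Cfsg.Geo.specialLinear (Fin 12) F)) ∨
    (∃ D : Fin 12 → Submodule F (Fin 12 → F), Cfsg.Geo.IsNondegenerateMDecomposition (Cfsg.hermForm 12 F q) 1 D ∧ H = Cfsg.Geo.decompositionStabilizer D ⊓ (Cfsg.GU 12 F q ⊓ Cfsg.Geo.specialLinear (Fin 12) F)) ∨
    (3 ≤ q ∧ ∃ D : Fin 6 → Submodule F (Fin 12 → F), Cfsg.Geo.IsNondegenerateMDecomposition (Cfsg.hermForm 12 F q) 2 D ∧ H = Cfsg.Geo.decompositionStabilizer D ⊓ (Cfsg.GU 12 F q ⊓ Cfsg.Geo.specialLinear (Fin 12) F)) ∨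
    (∃ D : Fin 4 → Submodule F (Fin 12 → F), Cfsg.Geo.IsNondegenerateMDecomposition (Cfsg.hermForm 12 F q) 3 D ∧ H = Cfsg.Geo.decompositionStabilizer D ⊓ (Cfsg.GU 12 F q ⊓ Cfsg.Geo.specialLinear (Fin 12) F)) ∨
    (∃ D : Fin 3 → Submodule F (Fin 12 → F), Cfsg.Geo.IsNondegenerateMDecomposition (Cfsg.hermForm 12 F q) 4 D ∧ H = Cfsg.Geo.decompositionStabilizer D ⊓ (Cfsg.GU 12 F q ⊓ Cfsg.Geo.specialLinear (Fin 12) F)) ∨
    (∃ D : Fin 2 → Submodule F (Fin 12 → F), Cfsg.Geo.IsNondegenerateMDecomposition (Cfsg.hermForm 12 F q) 6 D ∧ H = Cfsg.Geo.decompositionStabilizer D ⊓ (Cfsg.GU 12 F q ⊓ Cfsg.Geo.specialLinear (Fin 12) F)) ∨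
    (∃ D : Fin 2 → Submodule F (Fin 12 → F), Cfsg.Geo.IsMDecomposition 6 D ∧ (∀ i, Cfsg.Geo.IsTotallySingularFor (Cfsg.hermForm 12 F q) (D i)) ∧ H = Cfsg.Geo.decompositionStabilizer D ⊓ (Cfsg.GU 12 F q ⊓ Cfsg.Geo.specialLinear (Fin 12) F)) ∨
    (∃ K : Subalgebra F (Matrix (Fin 12) (Fin 12) F), Cfsg.Geo.IsFieldSubalgebra 3 K ∧ Cfsg.Geo.IsAdjointClosedFor (Cfsg.hermForm 12 F q) K ∧ H = Cfsg.Geo.subalgebraNormalizer K ⊓ (Cfsg.GU 12 F q ⊓ Cfsg.Geo.specialLinear (Fin 12) F)) ∨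
    (3 ≤ q ∧ ∃ (e : Fin 12 ≃ Fin 2 × Fin 6) (P : Matrix.GeneralLinearGroup (Fin 12) F) (f₁ : (Fin 2 → F) → (Fin 2 → F) → F) (f₂ : (Fin 6 → F) → (Fin 6 → F) → F), Cfsg.Geo.IsUnitaryFormPow q f₁ ∧ Cfsg.Geo.IsUnitaryFormPow q f₂ ∧ Cfsg.Geo.IsTensorFormStructure (fun x : F => x ^ q) (Cfsg.hermForm 12 F q) f₁ f₂ e P ∧ H = Cfsg.Geo.tensorProductSubgroup 2 6 e P ⊓ (Cfsg.GU 12 F q ⊓ Cfsg.Geo.specialLinear (Fin 12) F)) ∨
    (∃ (e : Fin 12 ≃ Fin 3 × Fin 4) (P : Matrix.GeneralLinearGroup (Fin 12) F) (f₁ : (Fin 3 → F) → (Fin 3 → F) → F) (f₂ : (Fin 4 → F) → (Fin 4 → F) → F), Cfsg.Geo.IsUnitaryFormPow q f₁ ∧ Cfsg.Geo.IsUnitaryFormPow q f₂ ∧ Cfsg.Geo.IsTensorFormStructure (fun x : F => x ^ q) (Cfsg.hermForm 12 F q) f₁ f₂ e P ∧ H = Cfsg.Geo.tensorProductSubgroup 3 4 e P ⊓ (Cfsg.GU 12 F q ⊓ Cfsg.Geo.specialLinear (Fin 12) F)) ∨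
    (∃ (F₀ : Subfield F) (r : ℕ) (P : Matrix.GeneralLinearGroup (Fin 12) F), r.Prime ∧ Odd r ∧ Fintype.card F = Nat.card F₀ ^ r ∧ Cfsg.Geo.IsFormRationalStructure (Cfsg.hermForm 12 F q) F₀ 1 P ∧ H = Cfsg.Geo.subfieldSubgroup F₀ P ⊓ (Cfsg.GU 12 F q ⊓ Cfsg.Geo.specialLinear (Fin 12) F)) ∨
    (∃ (F₀ : Subfield F) (P : Matrix.GeneralLinearGroup (Fin 12) F) (ζ : F), Fintype.card F = Nat.card F₀ ^ 2 ∧ ζ ≠ 0 ∧ ζ + ζ ^ q = 0 ∧ Cfsg.Geo.IsFormRationalStructure (Cfsg.hermForm 12 F q) F₀ ζ P ∧ (∀ u : Fin 12 → F, (∀ i, u i ∈ F₀) → (Cfsg.hermForm 12 F q) (Matrix.mulVec (P : Matrix (Fin 12) (Fin 12) F) u) (Matrix.mulVec (P : Matrix (Fin 12) (Fin 12) F) u) = 0) ∧ H = Cfsg.Geo.subfieldSubgroup F₀ P ⊓ (Cfsg.GU 12 F q ⊓ Cfsg.Geo.specialLinear (Fin 12) F)) ∨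
    (Odd q ∧ ∃ (F₀ : Subfield F) (P : Matrix.GeneralLinearGroup (Fin 12) F), Fintype.card F = Nat.card F₀ ^ 2 ∧ Cfsg.Geo.IsFormRationalStructure (Cfsg.hermForm 12 F q) F₀ 1 P ∧ H = Cfsg.Geo.subfieldSubgroup F₀ P ⊓ (Cfsg.GU 12 F q ⊓ Cfsg.Geo.specialLinear (Fin 12) F)) ∨
    Cfsg.Geo.InUnitaryResidualClass H := by
  have h32 : ¬ (12 = 3 ∧ q = 2) := by omega
  have hq2 : 2 ≤ q := by
    have h1 : 1 < Fintype.card F := Fintype.one_lt_card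
    by_contra hq
    have : q = 0 ∨ q = 1 := by omega
    rcases this with rfl | rfl <;> simp [hF] at h1
  have hq : q = 2 ∨ 3 ≤ q := by omega
  have hHG : ∀ g ∈ H, ∀ u v, hermForm 12 F q ((g : Matrix (Fin 12) (Fin 12) F) *ᵥ u)
      ((g : Matrix (Fin 12) (Fin 12) F) *ᵥ v) = hermForm 12 F q u v := fun g hg => (hH.1.le hg).1
  rcases unitary_maximal_cases hF (by norm_num) h32 hH
    (fun k t e P hk ht hkt => absurd hkt (twelve_ne_pow ht)) h with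
    h | h | ⟨t, k, D, htk, ht, hD, h⟩ | ⟨k, D, hk, hD, hs, h⟩ | h | ⟨F₀, P, hq', h⟩ |
    ⟨F₀, P, ζ, -, h⟩ | ⟨r, R, p, e, k, hR, -, -, -, -, -, -, -, -, hn, -⟩ |
    ⟨R, p, k, -, -, -, -, -, -, -, -, hn, -⟩ | ⟨r, K, hr, hro, hrn, hK, hKa, h⟩ |
    ⟨n₁, n₂, e, P, f₁, f₂, hn, h2, hlt, hf₁, hf₂, hf, h⟩ |
    ⟨k, t, e, P, f₁, hkt, hk, ht, -⟩ | h
  · exact Or.inl h
  · exact Or.inr (Or.inl h)
  · have ht12 : t ∣ 12 := ⟨k, htk.symm⟩
    have hts : t ≤ 12 := Nat.le_of_dvd (by norm_num) ht12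
    have hcases : (t = 2 ∧ k = 6) ∨ (t = 3 ∧ k = 4) ∨ (t = 4 ∧ k = 3) ∨ (t = 6 ∧ k = 2) ∨ (t = 12 ∧ k = 1) := by
      interval_cases t <;> omega
    rcases hcases with ⟨rfl, rfl⟩ | ⟨rfl, rfl⟩ | ⟨rfl, rfl⟩ | ⟨rfl, rfl⟩ | ⟨rfl, rfl⟩
    · iterate 6 right
      exact Or.inl ⟨D, hD, h⟩
    · iterate 5 right
      exact Or.inl ⟨D, hD, h⟩
    · iterate 4 right
      exact Or.inl ⟨D, hD, h⟩
    · rcases hq with rfl | hq
      · obtain ⟨E, hE, hE'⟩ := exists_refinement hF (hermForm_isUnitaryFormPow hF 12) hD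
        iterate 2 right
        left
        refine ⟨E, hE, eq_inf_of_maximal hH (fun g hg => hE' g (hHG g hg) ?_)
          (SUg_not_le_decompositionStabilizer hF (by norm_num) h32 hE.decomp)⟩
        rw [h] at hg
        exact hg.1
      · iterate 3 right
        exact Or.inl ⟨hq, D, hD, h⟩
    · iterate 2 right
      exact Or.inl ⟨D, hD, h⟩
  · obtain rfl : k = 6 := by omega
    iterate 7 right
    exact Or.inl ⟨D, hD, hs, h⟩
  · iterate 11 right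
    exact Or.inl h
  · iterate 13 right
    exact Or.inl ⟨hq', F₀, P, h⟩
  · iterate 12 right
    exact Or.inl ⟨F₀, P, ζ, h⟩
  · exact absurd hn (twelve_ne_prime_pow hR.prime)
  · exact absurd hn (twelve_ne_prime_pow Nat.prime_two)
  · have hr3 : r = 3 := by
      have h1 : r ≤ 12 := Nat.le_of_dvd (by norm_num) hrn
      have h2 := hr.two_le
      obtain ⟨j, hj⟩ := hro
      interval_cases r <;> omega
    subst hr3
    iterate 8 right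
    exact Or.inl ⟨K, hK, hKa, h⟩
  · have hcases : (n₁ = 2 ∧ n₂ = 6) ∨ (n₁ = 3 ∧ n₂ = 4) := by
      have h1 : n₁ ≤ 3 := by
        by_contra hc
        have : 4 * 5 ≤ n₁ * n₂ := Nat.mul_le_mul (by omega) (by omega)
        omega
      interval_cases n₁ <;> omega
    rcases hcases with ⟨rfl, rfl⟩ | ⟨rfl, rfl⟩
    · rcases hq with rfl | hq
      · obtain ⟨E, hE, hE'⟩ := exists_decomposition_of_tensor_two hF (by norm_num) hf₁ hf₂ hf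
        iterate 6 right
        left
        refine ⟨E, hE, eq_inf_of_maximal hH (fun g hg => hE' g (hHG g hg) ?_)
          (SUg_not_le_decompositionStabilizer hF (by norm_num) h32 hE.decomp)⟩
        rw [h] at hg
        exact hg.1
      · iterate 9 right
        exact Or.inl ⟨hq, e, P, f₁, f₂, hf₁, hf₂, hf, h⟩
    · iterate 10 right
      exact Or.inl ⟨e, P, f₁, f₂, hf₁, hf₂, hf, h⟩
  · exact absurd hkt (twelve_ne_pow ht)
  · iterate 14 right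
    exact h

end Cfsg.Agent.H930
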