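import Cfsg.Agent.H930.UnitaryTwo

/-!
# The refined frame of a decomposition into 2-spaces over the field with four elements, with its orthonormal vectors
-/

set_option autoImplicit false
set_option linter.unusedSectionVars false

namespace Cfsg.Agent.H930

open Cfsg Cfsg.Geo
open scoped Matrix MatrixGroups Kronecker

variable {ι : Type} [Fintype ι] [DecidableEq ι] {F : Type*} [Field F]

/-- Version of `exists_refinement` with the orthonormal vectors: every member `D i` is spanned by an orthonormal
pair `w i 0, w i 1`, and every isometry stabilising `D` permutes the `2 t` lines spanned by the `w i k`. -/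
theorem exists_orthonormal_family [Fintype F] {f : (ι → F) → (ι → F) → F} (hF : Fintype.card F = 2 ^ 2)
    (hf : IsUnitaryFormPow 2 f) {t : ℕ} {D : Fin t → Submodule F (ι → F)}
    (hD : IsNondegenerateMDecomposition f 2 D) :
    ∃ (w : Fin t → Fin 2 → (ι → F)) (E : Fin (t * 2) → Submodule F (ι → F)),
      (∀ i k, w i k ∈ D i) ∧ (∀ i k, f (w i k) (w i k) = 1) ∧
      (∀ i k j l, (i, k) ≠ (j, l) → f (w i k) (w j l) = 0) ∧
      (∀ j, E j = Submodule.span F {w (finProdFinEquiv.symm j).1 (finProdFinEquiv.symm j).2}) ∧
      IsNondegenerateMDecomposition f 1 E ∧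
      ∀ g : GL ι F, (∀ u v, f ((g : Matrix ι ι F) *ᵥ u) ((g : Matrix ι ι F) *ᵥ v) = f u v) →
        g ∈ decompositionStabilizer D → g ∈ decompositionStabilizer E := by
  choose w hw1 hw0 hwD using fun i =>
    exists_orthonormal hF hf (hD.nondegenerate i) (hD.decomp.finrank_eq i)
  have hwm : ∀ i k, w i k ∈ D i := fun i k => by
    rw [hwD i]; exact Submodule.subset_span ⟨k, rfl⟩
  set W : Fin (t * 2) → (ι → F) := fun j => w (finProdFinEquiv.symm j).1 (finProdFinEquiv.symm j).2 with hW
  have hW1 : ∀ j, f (W j) (W j) = 1 := fun j => hw1 _ _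
  have hW0 : ∀ j l, j ≠ l → f (W j) (W l) = 0 := by
    intro j l hjl
    by_cases h : (finProdFinEquiv.symm j).1 = (finProdFinEquiv.symm l).1
    · have h2 : (finProdFinEquiv.symm j).2 ≠ (finProdFinEquiv.symm l).2 := by
        intro h2
        exact hjl (finProdFinEquiv.symm.injective (Prod.ext h h2))
      have h3 := hw0 (finProdFinEquiv.symm l).1 _ _ h2
      rw [← h3, hW]
      simp only [h]
    · exact hD.orthogonal _ _ h _ (hwm _ _) _ (hwm _ _)
  have hne : ∀ j, W j ≠ 0 := by
    intro j h
    have := hW1 j
    rw [h, UForm.zero_left hf] at this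
    exact zero_ne_one this
  have hind : LinearIndependent F W := by
    rw [linearIndependent_iff']
    intro s c hc j hj
    have h1 : f (∑ l ∈ s, c l • W l) (W j) = c j := by
      have h2 : ∀ (s : Finset (Fin (t * 2))), f (∑ l ∈ s, c l • W l) (W j) = ∑ l ∈ s, c l * f (W l) (W j) := by
        classical
        intro s
        induction s using Finset.induction_on with
        | empty => simp [UForm.zero_left hf]
        | insert a s ha ih => rw [Finset.sum_insert ha, Finset.sum_insert ha, hf.add_left, hf.smul_left, ih]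
      rw [h2, Finset.sum_eq_single j]
      · rw [hW1, mul_one]
      · intro l _ hl
        rw [hW0 l j hl, mul_zero]
      · intro h
        exact absurd hj h
    rw [hc, UForm.zero_left hf] at h1
    exact h1.symm
  have hispan : iSupIndep (fun j => Submodule.span F {W j}) := hind.iSupIndep_span_singleton
  have hww : ∀ i k j l, (i, k) ≠ (j, l) → f (w i k) (w j l) = 0 := by
    intro i k j l h
    by_cases hij : i = j
    · subst hij
      exact hw0 i k l (fun hkl => h (by rw [hkl]))
    · exact hD.orthogonal _ _ hij _ (hwm _ _) _ (hwm _ _)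
  refine ⟨w, fun j => Submodule.span F {W j}, hwm, hw1, hww, fun j => rfl,
    ⟨⟨?_, one_pos, ?_, hispan, ?_⟩, ?_, ?_⟩, ?_⟩
  · have := hD.decomp.two_le
    omega
  · intro j
    exact finrank_span_singleton (hne j)
  · rw [eq_top_iff, ← hD.decomp.iSup_eq_top]
    refine iSup_le fun i => ?_
    rw [hwD i, Submodule.span_le]
    rintro x ⟨k, rfl⟩
    have h1 : w i k = W (finProdFinEquiv (i, k)) := by
      simp only [hW, Equiv.symm_apply_apply]
    rw [h1]
    exact (le_iSup (fun j => Submodule.span F {W j}) (finProdFinEquiv (i, k)))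
      (Submodule.mem_span_singleton_self _)
  · intro j x hx hx0
    obtain ⟨a, rfl⟩ := Submodule.mem_span_singleton.1 hx
    have ha : a ≠ 0 := by
      rintro rfl
      exact hx0 (zero_smul _ _)
    refine ⟨⟨W j, Submodule.mem_span_singleton_self _, ?_⟩, ⟨W j, Submodule.mem_span_singleton_self _, ?_⟩⟩
    · rw [UForm.smul_right hf, hW1, mul_one]
      exact pow_ne_zero 2 ha
    · rw [hf.smul_left, hW1, mul_one]
      exact ha
  · intro j l hjl u hu v hv
    obtain ⟨a, rfl⟩ := Submodule.mem_span_singleton.1 hu
    obtain ⟨b, rfl⟩ := Submodule.mem_span_singleton.1 hv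
    rw [hf.smul_left, UForm.smul_right hf, hW0 j l hjl, mul_zero, mul_zero]
  · intro g hg hgD
    obtain ⟨σ, hσ⟩ := hgD
    have hex : ∀ j, ∃ l, (Submodule.span F {W j}).map (Matrix.toLin' (g : Matrix ι ι F)) =
        Submodule.span F {W l} := by
      intro j
      set i := (finProdFinEquiv.symm j).1 with hi
      have h1 : (g : Matrix ι ι F) *ᵥ W j ∈ D (σ i) := by
        rw [← hσ i]
        exact ⟨W j, hwm _ _, rfl⟩
      rw [hwD (σ i)] at h1
      have h2 : f ((g : Matrix ι ι F) *ᵥ W j) ((g : Matrix ι ι F) *ᵥ W j) ≠ 0 := by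
        rw [hg, hW1]; exact one_ne_zero
      obtain ⟨k, hk⟩ := nonisotropic_mem hF hf (hw1 (σ i)) (hw0 (σ i)) h1 h2
      refine ⟨finProdFinEquiv (σ i, k), ?_⟩
      have h3 : W (finProdFinEquiv (σ i, k)) = w (σ i) k := by
        simp only [hW, Equiv.symm_apply_apply]
      rw [h3, Submodule.map_span, Set.image_singleton, Matrix.toLin'_apply]
      apply Submodule.eq_of_le_of_finrank_eq
      · rw [Submodule.span_singleton_le_iff_mem]
        exact hk
      · rw [finrank_span_singleton, finrank_span_singleton]
        · have := hne (finProdFinEquiv (σ i, k))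
          rwa [h3] at this
        · intro h0
          apply h2
          rw [h0, UForm.zero_left hf]
    choose τ hτ using hex
    exact mem_decompositionStabilizer_of_fun hispan
      (fun j => by rw [Ne, Submodule.span_singleton_eq_bot]; exact hne j) g τ hτ

end Cfsg.Agent.H930
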